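import Mathlib
import Cfsg.Agent.Lib.Helper31.Siegel.Defs

/-!
# SIEGEL [DUAL]: dual vectors of an independent family.
-/

set_option autoImplicit false
open scoped Matrix

namespace Cfsg.Agent.Lib.Helper96.Siegel

open Cfsg.Agent.Lib.Helper31.Siegel

universe u

/-- `B u (c ∘ Sum.swap) = u ⬝ᵥ c`. -/
theorem dual_B_swap {n : ℕ} {F : Type u} [Field F] (u c : Vec n F) :
    B u (fun a => c (Sum.swap a)) = u ⬝ᵥ c := by
  rw [B_apply]
  simp only [dotProduct, Fintype.sum_sum_type, Sum.swap_inl, Sum.swap_inr]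
  rw [← Finset.sum_add_distrib]

theorem pkgDual : Cfsg.Agent.Lib.Helper31.Siegel.PkgDual.{u} := by
  intro n F _ k w hw
  classical
  set M : Matrix (Fin k) (Fin n ⊕ Fin n) F := Matrix.of w with hM
  have hrank : M.rank = Fintype.card (Fin k) := by
    apply LinearIndependent.rank_matrix
    exact hw
  have htop : LinearMap.range M.mulVecLin = ⊤ := by
    apply Submodule.eq_top_of_finrank_eq
    rw [Module.finrank_fin_fun]
    have : M.rank = Module.finrank F (LinearMap.range M.mulVecLin) := rfl
    rw [← this, hrank, Fintype.card_fin]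
  have hex : ∀ j : Fin k, ∃ c : Vec n F, M *ᵥ c = Pi.single j 1 := by
    intro j
    have : (Pi.single j 1 : Fin k → F) ∈ LinearMap.range M.mulVecLin := by
      rw [htop]; exact Submodule.mem_top
    obtain ⟨c, hc⟩ := this
    exact ⟨c, hc⟩
  choose c hc using hex
  refine ⟨fun j a => c j (Sum.swap a), ?_⟩
  intro i j
  rw [dual_B_swap]
  have h1 := congrFun (hc j) i
  rw [Pi.single_apply] at h1
  rw [← h1]
  rfl

end Cfsg.Agent.Lib.Helper96.Siegel
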