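import Mathlib
import Cfsg.Agent.Lib.Helper31.Siegel.Defs

/-!
# SIEGEL [NORMOPP]: normalisation of an opposite line to a dual basis.
-/

set_option autoImplicit false
open scoped Matrix

namespace Cfsg.Agent.Lib.Helper96.Siegel

open Cfsg.Agent.Lib.Helper31.Siegel

universe u

theorem pkgNormOpp : Cfsg.Agent.Lib.Helper31.Siegel.PkgNormOpp.{u} := by
  intro n F _ p r x y hopp
  unfold Opp at hopp
  set Δ : F := B p x * B r y - B p y * B r x with hΔ
  refine ⟨(B r y / Δ) • x + (-(B r x) / Δ) • y, (-(B p y) / Δ) • x + (B p x / Δ) • y,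
    ⟨B r y / Δ, -(B r x) / Δ, -(B p y) / Δ, B p x / Δ, ?_, rfl, rfl⟩, ?_, ?_, ?_, ?_⟩
  · have : B r y / Δ * (B p x / Δ) - -(B r x) / Δ * (-(B p y) / Δ) = 1 / Δ := by
      field_simp
      rw [hΔ]
      ring
    rw [this]
    exact one_div_ne_zero hopp
  · rw [B_add_right, B_smul_right, B_smul_right]
    field_simp
    rw [hΔ]
    ring
  · rw [B_add_right, B_smul_right, B_smul_right]
    field_simp
    rw [hΔ]
    ring
  · rw [B_add_right, B_smul_right, B_smul_right]
    field_simp
    ring
  · rw [B_add_right, B_smul_right, B_smul_right]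
    field_simp
    ring

end Cfsg.Agent.Lib.Helper96.Siegel
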